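import Cfsg.Agent.Lib.H2.CM.Orb

set_option autoImplicit false

/-! Overgroups of the cross stabiliser: orbits on minimal vectors. -/

namespace H2.CM

open Cfsg Finset H9.Leech H9.ModTwo H9.LatticeIso H9.LeechGood H9.Trans H9.CoOrder H8.GolayCode H8.GolayBasic
open H8.GolayCount MulAction H33.Leech1 H33.Leech2 H33.Leech3 H33.Leech4 H33.Leech6 H33.Leech7

theorem ncard_le_of {p : leechLattice → Prop} {S : Finset (GolayPt → ℤ)} {n : ℕ} (hS : S.card ≤ n)
    (h : ∀ x : leechLattice, p x → (x : GolayPt → ℤ) ∈ S) : {x | p x}.ncard ≤ n := by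
  rw [← Set.ncard_image_of_injective _ (Subtype.val_injective (p := fun x => x ∈ leechLattice))]
  refine le_trans (Set.ncard_le_ncard (t := (S : Set (GolayPt → ℤ))) ?_ S.finite_toSet) ?_
  · rintro _ ⟨x, hx, rfl⟩; exact h x hx
  · rw [Set.ncard_coe_finset]; exact hS

theorem IsA.norm {x : leechLattice} (h : IsA x) : sqNorm (x : GolayPt → ℤ) = 32 := by
  obtain ⟨n, -, hn⟩ := exists_A h
  rw [← co0_norm n, hn, normA]

theorem IsB.norm {x : leechLattice} (h : IsB x) : sqNorm (x : GolayPt → ℤ) = 32 := by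
  obtain ⟨n, -, hn⟩ := exists_B h
  rw [← co0_norm n, hn]
  unfold sqNorm
  have : ∀ i, (twoInd O1 O1_mem : GolayPt → ℤ) i ^ 2 = 4 * ind O1 i := by
    intro i; rw [coe_twoInd]; unfold ind; split_ifs <;> norm_num
  rw [sum_congr rfl fun i _ => this i, ← mul_sum, sum_ind, O1_mem.2]; norm_num

theorem normW0 : sqNorm (W0 : GolayPt → ℤ) = 32 := by
  unfold sqNorm
  have : ∀ i, (W0 : GolayPt → ℤ) i ^ 2 = 1 + 8 * (if i = P then 1 else 0) := by
    intro i; rw [coe_W0]; split_ifs <;> norm_num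
  rw [sum_congr rfl fun i _ => this i, sum_add_distrib, ← mul_sum, sum_ite_eq' univ P, if_pos (mem_univ _),
    Finset.sum_const, card_univ, card_pt]
  norm_num

theorem IsC.norm {x : leechLattice} (h : IsC x) : sqNorm (x : GolayPt → ℤ) = 32 := by
  obtain ⟨n, -, hn⟩ := exists_C h
  rw [← co0_norm n, hn, normW0]

theorem IsA.four {x : leechLattice} (h : IsA x) (i : GolayPt) : (4 : ℤ) ∣ (x : GolayPt → ℤ) i := by
  obtain ⟨a, b, _, ha, hb, h0⟩ := h
  by_cases hia : i = a
  · subst hia; rcases ha with h | h <;> rw [h] <;> norm_num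
  · by_cases hib : i = b
    · subst hib; rcases hb with h | h <;> rw [h] <;> norm_num
    · rw [h0 i hia hib]; exact dvd_zero _

theorem IsB.two {x : leechLattice} (h : IsB x) : (∀ i, (2 : ℤ) ∣ (x : GolayPt → ℤ) i) ∧ ¬ ∀ i, (4 : ℤ) ∣ (x : GolayPt → ℤ) i := by
  obtain ⟨O, hO, h1, h2⟩ := h
  constructor
  · intro i
    by_cases hi : i ∈ O
    · rcases h1 i hi with h | h <;> rw [h] <;> norm_num
    · rw [h2 i hi]; exact dvd_zero _
  · intro h4
    obtain ⟨i, hi⟩ : O.Nonempty := by rw [← card_pos, hO.2]; norm_num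
    have h5 := h4 i
    rcases h1 i hi with h | h <;> rw [h] at h5 <;> norm_num at h5

theorem IsC.odd {x : leechLattice} (h : IsC x) (i : GolayPt) : ¬ (2 : ℤ) ∣ (x : GolayPt → ℤ) i := by
  obtain ⟨c, hc, j, h1⟩ := h
  rw [h1]
  unfold eps
  split_ifs <;> norm_num

theorem IsA.notB {x : leechLattice} (h : IsA x) : ¬ IsB x := fun hB => hB.two.2 h.four
theorem IsA.notC {x : leechLattice} (h : IsA x) : ¬ IsC x := fun hC =>
  hC.odd P ((by norm_num : (2 : ℤ) ∣ 4).trans (h.four P))
theorem IsB.notC {x : leechLattice} (h : IsB x) : ¬ IsC x := fun hC => hC.odd P (h.two.1 P)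

theorem finN : {x : leechLattice | sqNorm (x : GolayPt → ℤ) = 32}.Finite :=
  Set.finite_of_ncard_pos (by rw [H33.Leech14.n32]; norm_num)

theorem cards : {x | IsA x}.ncard = 1104 ∧ {x | IsB x}.ncard = 97152 ∧ {x | IsC x}.ncard = 98304 := by
  classical
  have hc := H9.FrameCount.counts frame card_pt
  have hA : {x | IsA x}.ncard ≤ 1104 := ncard_le_of (H9.FrameCount.card_T0 frame card_pt) fun x hx => by
    rw [mem_filter, H9.FrameCount.mem_T]
    exact ⟨⟨x.2, hx.norm⟩, hx.four⟩
  have hB : {x | IsB x}.ncard ≤ 97152 := ncard_le_of (le_trans (H9.FrameCount.card_T8 frame card_pt) (by rw [hc.1]))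
    fun x hx => by
      rw [mem_filter, H9.FrameCount.mem_T]
      exact ⟨⟨x.2, hx.norm⟩, hx.two⟩
  have hC : {x | IsC x}.ncard ≤ 98304 := ncard_le_of (le_trans (H9.FrameCount.card_T1 frame card_pt) (by rw [hc.2.1]))
    fun x hx => by
      rw [mem_filter, H9.FrameCount.mem_T]
      exact ⟨⟨x.2, hx.norm⟩, fun h => hx.odd P (h P)⟩
  have hsum : (196560 : ℕ) ≤ {x | IsA x}.ncard + {x | IsB x}.ncard + {x | IsC x}.ncard := by
    rw [← H33.Leech14.n32]
    have hsub : {x : leechLattice | sqNorm (x : GolayPt → ℤ) = 32} ⊆ ({x | IsA x} ∪ {x | IsB x}) ∪ {x | IsC x} := by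
      intro x hx
      rcases cases32 hx with h | h | h
      · exact Or.inl (Or.inl h)
      · exact Or.inl (Or.inr h)
      · exact Or.inr h
    refine le_trans (Set.ncard_le_ncard hsub ?_) ?_
    · refine Set.Finite.subset finN ?_
      rintro x ((h | h) | h)
      · exact IsA.norm h
      · exact IsB.norm h
      · exact IsC.norm h
    · exact le_trans (Set.ncard_union_le _ _) (Nat.add_le_add_right (Set.ncard_union_le _ _) _)
  omega

/-- the orbit of `A` -/
theorem orbit_A {K : Subgroup Co0} (hK : crossSub ≤ K) :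
    orbit K A = {x | IsA x} ∨ orbit K A = {x : leechLattice | sqNorm (x : GolayPt → ℤ) = 32} := by
  have hnorm : ∀ x ∈ orbit K A, sqNorm (x : GolayPt → ℤ) = 32 := by
    rintro _ ⟨k, rfl⟩
    show sqNorm ((k.1 • A : leechLattice) : GolayPt → ℤ) = 32
    rw [co0_norm, normA]
  have hN : ∀ x ∈ orbit K A, ∀ n ∈ crossSub, n • x ∈ orbit K A := by
    rintro _ ⟨k, rfl⟩ n hn
    exact ⟨⟨n, hK hn⟩ * k, mul_smul _ _ _⟩
  have key : ∀ x y z : leechLattice, x ∈ orbit K A → (∃ n ∈ crossSub, n • x = z) → (∃ n ∈ crossSub, n • y = z) →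
      y ∈ orbit K A := by
    rintro x y z hx ⟨n, hn, rfl⟩ ⟨m, hm, hmn⟩
    have h1 := hN _ (hN x hx n hn) m⁻¹ (crossSub.inv_mem hm)
    rwa [← hmn, inv_smul_smul] at h1
  have hA : ∀ x, IsA x → x ∈ orbit K A := fun x hx =>
    key A x A (mem_orbit_self A) ⟨1, crossSub.one_mem, one_smul _ _⟩ (exists_A hx)
  have hfin : (orbit K A).Finite := finN.subset hnorm
  have hdvd : (orbit K A).ncard ∣ 8315553613086720000 := by
    rw [← card_co0, ← index_stabilizer]
    exact (Subgroup.index_dvd_card _).trans (Subgroup.card_subgroup_dvd_card K)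
  obtain ⟨cA, cB, cC⟩ := cards
  have fA : {x | IsA x}.Finite := Set.finite_of_ncard_pos (by rw [cA]; norm_num)
  have fB : {x | IsB x}.Finite := Set.finite_of_ncard_pos (by rw [cB]; norm_num)
  have fC : {x | IsC x}.Finite := Set.finite_of_ncard_pos (by rw [cC]; norm_num)
  by_cases hb : ∃ x ∈ orbit K A, IsB x
  · obtain ⟨b, hb, hbB⟩ := hb
    have hB : ∀ x, IsB x → x ∈ orbit K A := fun x hx => key b x _ hb (exists_B hbB) (exists_B hx)
    by_cases hc : ∃ x ∈ orbit K A, IsC x
    · obtain ⟨c, hc, hcC⟩ := hc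
      have hC : ∀ x, IsC x → x ∈ orbit K A := fun x hx => key c x _ hc (exists_C hcC) (exists_C hx)
      right
      ext x
      refine ⟨hnorm x, fun hx => ?_⟩
      rcases cases32 hx with h | h | h
      · exact hA x h
      · exact hB x h
      · exact hC x h
    · exfalso
      have h1 : orbit K A = {x | IsA x} ∪ {x | IsB x} := by
        ext x
        constructor
        · intro hx
          rcases cases32 (hnorm x hx) with h | h | h
          · exact Or.inl h
          · exact Or.inr h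
          · exact absurd ⟨x, hx, h⟩ hc
        · rintro (h | h)
          · exact hA x h
          · exact hB x h
      rw [h1, Set.ncard_union_eq (Set.disjoint_left.mpr fun x h1 h2 => h1.notB h2) fA fB, cA, cB] at hdvd
      revert hdvd
      norm_num
  · by_cases hc : ∃ x ∈ orbit K A, IsC x
    · exfalso
      obtain ⟨c, hc, hcC⟩ := hc
      have hC : ∀ x, IsC x → x ∈ orbit K A := fun x hx => key c x _ hc (exists_C hcC) (exists_C hx)
      have h1 : orbit K A = {x | IsA x} ∪ {x | IsC x} := by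
        ext x
        constructor
        · intro hx
          rcases cases32 (hnorm x hx) with h | h | h
          · exact Or.inl h
          · exact absurd ⟨x, hx, h⟩ hb
          · exact Or.inr h
        · rintro (h | h)
          · exact hA x h
          · exact hC x h
      rw [h1, Set.ncard_union_eq (Set.disjoint_left.mpr fun x h1 h2 => h1.notC h2) fA fC, cA, cC] at hdvd
      revert hdvd
      norm_num
    · left
      ext x
      constructor
      · intro hx
        rcases cases32 (hnorm x hx) with h | h | h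
        · exact h
        · exact absurd ⟨x, hx, h⟩ hb
        · exact absurd ⟨x, hx, h⟩ hc
      · exact hA x

theorem isA_E {i j : GolayPt} (hij : i ≠ j) {a b : ℤ} (ha : a = 1 ∨ a = -1) (hb : b = 1 ∨ b = -1)
    (h : ∃ k, a + b = 2 * k) : IsA (E i j a b h) := by
  refine ⟨i, j, hij, ?_, ?_, ?_⟩
  · rw [coe_E, Pi.add_apply, Pi.single_eq_same, Pi.single_eq_of_ne hij]
    rcases ha with rfl | rfl <;> norm_num
  · rw [coe_E, Pi.add_apply, Pi.single_eq_same, Pi.single_eq_of_ne hij.symm]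
    rcases hb with rfl | rfl <;> norm_num
  · intro k hi hj
    rw [coe_E, Pi.add_apply, Pi.single_eq_of_ne hi, Pi.single_eq_of_ne hj]; rfl

/-- an overgroup preserving the vectors of shape `(±4,±4,0,...)` is the cross stabiliser -/
theorem eq_of_orbit {K : Subgroup Co0} (hK : crossSub ≤ K) (h : orbit K A = {x | IsA x}) : K ≤ crossSub := by
  intro k hk
  have hinv : ∀ x, IsA x → IsA (k⁻¹ • x) := by
    intro x hx
    have h1 : x ∈ orbit K A := by rw [h]; exact hx
    obtain ⟨m, rfl⟩ := h1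
    have h2 : k⁻¹ • (m • A) ∈ orbit K A := ⟨⟨k⁻¹, K.inv_mem hk⟩ * m, mul_smul _ _ _⟩
    rw [h] at h2
    exact h2
  rw [mem_crossSub, H9.Cross.pres_iff P]
  set f := k • e8 P with hf
  have hn : sqNorm (f : GolayPt → ℤ) = 64 := by
    rw [hf, co0_norm]
    exact (norm_iff (e8 P) 8).mpr (H9.Cross.e8_norm P)
  have h32 : ∀ v : leechLattice, IsA v → (32 : ℤ) ∣ dotInt (v : GolayPt → ℤ) (f : GolayPt → ℤ) := by
    intro v hv
    have h1 : dotInt (v : GolayPt → ℤ) (f : GolayPt → ℤ) = dotInt ((k⁻¹ • v : leechLattice) : GolayPt → ℤ) (e8 P : GolayPt → ℤ) := by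
      rw [hf, ← co0_dot k⁻¹ v, inv_smul_smul]
    rw [h1, coe_e8, dot_e8]
    obtain ⟨t, ht⟩ := (hinv v hv).four P
    exact ⟨t, by rw [ht]; ring⟩
  have h8 : ∀ i j, i ≠ j → (8 : ℤ) ∣ (f : GolayPt → ℤ) i + (f : GolayPt → ℤ) j ∧
      (8 : ℤ) ∣ (f : GolayPt → ℤ) i - (f : GolayPt → ℤ) j := by
    intro i j hij
    have h1 := h32 _ (isA_E hij (Or.inl rfl) (Or.inl rfl) ⟨1, rfl⟩)
    have h2 := h32 _ (isA_E hij (Or.inl rfl) (Or.inr rfl) ⟨0, rfl⟩)
    rw [dot_E] at h1 h2
    constructor <;> omega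
  have hsum : ∑ i, (f : GolayPt → ℤ) i ^ 2 = 64 := hn
  have hPQ := h8 P Q PQ
  have hcase : (∀ i, (8 : ℤ) ∣ (f : GolayPt → ℤ) i) ∨ (∀ i, (16 : ℤ) ≤ (f : GolayPt → ℤ) i ^ 2) := by
    by_cases hP : (8 : ℤ) ∣ (f : GolayPt → ℤ) P
    · left
      intro i
      by_cases hi : i = P
      · rw [hi]; exact hP
      · have := h8 i P hi; omega
    · right
      intro i
      have hP4 : (4 : ℤ) ∣ (f : GolayPt → ℤ) P := by omega
      have h4 : (4 : ℤ) ∣ (f : GolayPt → ℤ) i ∧ ¬ (8 : ℤ) ∣ (f : GolayPt → ℤ) i := by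
        by_cases hi : i = P
        · rw [hi]; exact ⟨hP4, hP⟩
        · have := h8 i P hi; omega
      obtain ⟨⟨t, ht⟩, h5⟩ := h4
      have : t ≠ 0 := by rintro rfl; apply h5; rw [ht]; norm_num
      have : 1 ≤ t ^ 2 := by have := sq_pos_of_ne_zero this; linarith
      rw [ht]; nlinarith
  rcases hcase with h0 | h0
  · obtain ⟨p, hp⟩ : ∃ p, (f : GolayPt → ℤ) p ≠ 0 := by
      by_contra hcon
      push Not at hcon
      rw [sum_eq_zero fun i _ => by rw [hcon i]; rfl] at hsum
      norm_num at hsum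
    have h1 : (64 : ℤ) ≤ (f : GolayPt → ℤ) p ^ 2 := by
      obtain ⟨t, ht⟩ := h0 p
      have : t ≠ 0 := by rintro rfl; apply hp; rw [ht]; norm_num
      have : 1 ≤ t ^ 2 := by have := sq_pos_of_ne_zero this; linarith
      rw [ht]; nlinarith
    have h2 := add_sum_erase univ (fun i => (f : GolayPt → ℤ) i ^ 2) (mem_univ p)
    rw [hsum] at h2
    have h3 : 0 ≤ ∑ i ∈ univ.erase p, (f : GolayPt → ℤ) i ^ 2 := sum_nonneg fun i _ => sq_nonneg _
    have h4 : ∑ i ∈ univ.erase p, (f : GolayPt → ℤ) i ^ 2 = 0 := by omega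
    rw [sum_eq_zero_iff_of_nonneg fun i _ => sq_nonneg _] at h4
    have h5 : (f : GolayPt → ℤ) p ^ 2 = 64 := by omega
    have h6 : (f : GolayPt → ℤ) p = 8 ∨ (f : GolayPt → ℤ) p = -8 := by
      have : ((f : GolayPt → ℤ) p - 8) * ((f : GolayPt → ℤ) p + 8) = 0 := by linear_combination h5
      rcases mul_eq_zero.mp this with h | h <;> omega
    refine ⟨p, (f : GolayPt → ℤ) p, h6, ?_⟩
    funext i
    by_cases hi : i = p
    · subst hi; rw [Pi.single_eq_same]
    · rw [Pi.single_eq_of_ne hi]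
      exact (pow_eq_zero_iff two_ne_zero).mp (h4 i (mem_erase.mpr ⟨hi, mem_univ _⟩))
  · exfalso
    have h1 : ∑ _i : GolayPt, (16 : ℤ) ≤ ∑ i, (f : GolayPt → ℤ) i ^ 2 := sum_le_sum fun i _ => h0 i
    rw [hsum, Finset.sum_const, card_univ, card_pt] at h1
    norm_num at h1

theorem stab_relIndex (K : Subgroup Co0) (x : leechLattice) : (stabilizer Co0 x).relIndex K = (orbit K x).ncard := by
  have h : (stabilizer Co0 x).subgroupOf K = stabilizer K x := by
    ext g; exact Iff.rfl
  unfold Subgroup.relIndex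
  rw [h, index_stabilizer]

/-- `4095` divides the index if `K` is transitive on minimal vectors -/
theorem dvd_of_orbit {K : Subgroup Co0} (hK : crossSub ≤ K)
    (h : orbit K A = {x : leechLattice | sqNorm (x : GolayPt → ℤ) = 32}) : 4095 ∣ crossSub.relIndex K := by
  have h1 : (stabilizer Co0 A).relIndex K = 196560 := by rw [stab_relIndex, h, H33.Leech14.n32]
  have h2 : (stabilizer Co0 A).relIndex crossSub = 1104 := by
    rw [stab_relIndex, ← cards.1]
    congr 1
    ext x
    constructor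
    · rintro ⟨n, rfl⟩
      rcases orbit_A (le_refl crossSub) with h3 | h3
      · have h4 : n • A ∈ orbit crossSub A := mem_orbit A n
        rw [h3] at h4; exact h4
      · -- impossible: the octad vectors have coordinates 2
        have h4 : ((n • A : leechLattice) : GolayPt → ℤ) = ((n.1 • A : leechLattice) : GolayPt → ℤ) := rfl
        obtain ⟨σ, hσ, c, hc, hn⟩ := H9.Cross.mono_of_pres n.2
        refine ⟨σ P, σ Q, fun h5 => PQ (σ.injective h5), ?_, ?_, ?_⟩
        · rw [h4, hn, show A = E P Q 1 1 ⟨1, rfl⟩ from rfl, mono_E, Pi.add_apply, Pi.single_eq_same,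
            Pi.single_eq_of_ne (fun h5 => PQ (σ.injective h5))]
          split_ifs <;> norm_num
        · rw [h4, hn, show A = E P Q 1 1 ⟨1, rfl⟩ from rfl, mono_E, Pi.add_apply, Pi.single_eq_same,
            Pi.single_eq_of_ne (fun h5 => PQ (σ.injective h5).symm)]
          split_ifs <;> norm_num
        · intro k h5 h6
          rw [h4, hn, show A = E P Q 1 1 ⟨1, rfl⟩ from rfl, mono_E, Pi.add_apply, Pi.single_eq_of_ne h5,
            Pi.single_eq_of_ne h6]; rfl
    · intro hx
      obtain ⟨n, hn, hnx⟩ := exists_A hx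
      exact ⟨⟨n⁻¹, crossSub.inv_mem hn⟩, by show n⁻¹ • A = x; rw [← hnx, inv_smul_smul]⟩
  have h3 := Subgroup.relIndex_mul_relIndex (stabilizer Co0 A ⊓ crossSub) crossSub K inf_le_right hK
  have h4 := Subgroup.relIndex_mul_relIndex (stabilizer Co0 A ⊓ crossSub) (stabilizer Co0 A ⊓ K) K
    (inf_le_inf_left _ hK) inf_le_right
  rw [Subgroup.inf_relIndex_right, h2] at h3
  rw [Subgroup.inf_relIndex_right, h1, ← h3] at h4
  omega

end H2.CM
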