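import Cfsg.Agent.Lib.H2.CM.Cnt
import Cfsg.Agent.Lib.H9.CoStage2

set_option autoImplicit false

/-! Fixed vectors of the element of order 11 and the orbit of such a vector. -/

namespace H2.CM

open Cfsg Finset H9.Leech H9.ModTwo H9.LatticeIso H9.LeechGood H9.Trans H9.CoOrder H8.GolayCode H8.GolayBasic
open H8.GolayCount MulAction H33.Leech1 H33.Leech2 H33.Leech3 H33.Leech4 H33.Leech6 H33.Leech7 H9.CoStage H9.Co23
open H9.PermInv H40.PermCode H40.MathieuBase H40.MathieuElts H40.OutM23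

theorem U0_mem : U0 ∈ crossSub := H9.Cross.pres_mono (up uG).2 empty_mem

theorem u_pow : u ^ 11 = 1 := (Rep.isOne_iff (Rep.pow (by norm_num) rep_u 11)).mp (by decide +kernel)

theorem U0_pow : U0 ^ 11 = 1 := by
  unfold U0
  rw [← map_pow, show (up uG) ^ 11 = 1 from Subtype.ext u_pow, map_one]

/-- masks of the two cycles of length 11 -/
def mQ : ℕ := (1 :: Q11).foldl (fun a i => a + 2 ^ i) 0
def mN : ℕ := (5 :: N11).foldl (fun a i => a + 2 ^ i) 0

theorem no_word (m : ℕ) (hm : m = mQ ∨ m = mN) : ∀ k < 4096, Nat.land (cw k) m = cw k → cw k = 0 := by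
  have h1 : (List.range 4096).all (fun k => !(Nat.beq (Nat.land (cw k) mQ) (cw k)) || Nat.beq (cw k) 0) = true := by
    decide +kernel
  have h2 : (List.range 4096).all (fun k => !(Nat.beq (Nat.land (cw k) mN) (cw k)) || Nat.beq (cw k) 0) = true := by
    decide +kernel
  rw [List.all_eq_true] at h1 h2
  intro k hk h
  rcases hm with rfl | rfl
  · have := h1 k (List.mem_range.mpr hk)
    rw [h, Nat.beq_refl, Bool.not_true, Bool.false_or, Nat.beq_eq] at this
    exact this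
  · have := h2 k (List.mem_range.mpr hk)
    rw [h, Nat.beq_refl, Bool.not_true, Bool.false_or, Nat.beq_eq] at this
    exact this

theorem word_empty {m : ℕ} (hm : m = mQ ∨ m = mN) {c : Finset GolayPt} (hc : c ∈ GS)
    (h : ∀ i < 24, pt i ∈ c → m.testBit i = true) : c = ∅ := by
  obtain ⟨w, hw, rfl⟩ := hc
  obtain ⟨k, hk, rfl⟩ := mem_golay_iff_exists.mp hw
  have h1 : cw k = 0 := by
    apply no_word m hm k hk
    apply Nat.eq_of_testBit_eq
    intro i
    rw [show Nat.land (cw k) m = (cw k) &&& m from rfl, Nat.testBit_land]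
    by_cases hi : i < 24
    · by_cases hb : (cw k).testBit i = true
      · have h2 := h i hi ((pt_mem hi).mpr hb)
        rw [hb, h2]; rfl
      · rw [Bool.not_eq_true] at hb
        rw [hb]; rfl
    · have : (cw k).testBit i = false := Nat.testBit_lt_two_pow (lt_of_lt_of_le (cw_lt k) (Nat.pow_le_pow_right (by norm_num) (by omega)))
      rw [this]; rfl
  ext x
  rw [← pt_idx x, pt_mem (idx_lt x), h1]
  simp

/-- the possible coordinates -/
def chk : Bool := (List.range 17).all fun a => (List.range 17).all fun b => (List.range 5).all fun c => (List.range 5).all fun d =>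
  decide ((((a : ℤ) - 8) ^ 2 + ((b : ℤ) - 8) ^ 2 + 11 * ((c : ℤ) - 2) ^ 2 + 11 * ((d : ℤ) - 2) ^ 2 = 64 ∧
    (((a : ℤ) - 8) - ((b : ℤ) - 8)) % 2 = 0 ∧ (((a : ℤ) - 8) - ((c : ℤ) - 2)) % 2 = 0 ∧
        (((a : ℤ) - 8) - ((d : ℤ) - 2)) % 2 = 0) →
    (((c : ℤ) - 2 = 0 ∧ (d : ℤ) - 2 = 0 ∧ (((a : ℤ) - 8 = 0 ∧ (((b : ℤ) - 8) = 8 ∨ ((b : ℤ) - 8) = -8)) ∨
      ((b : ℤ) - 8 = 0 ∧ (((a : ℤ) - 8) = 8 ∨ ((a : ℤ) - 8) = -8)))) ∨
    ((|(a : ℤ) - 8| = 4 ∧ |(b : ℤ) - 8| = 2 ∨ |(a : ℤ) - 8| = 2 ∧ |(b : ℤ) - 8| = 4) ∧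
      (|(c : ℤ) - 2| = 2 ∧ (d : ℤ) - 2 = 0 ∨ (c : ℤ) - 2 = 0 ∧ |(d : ℤ) - 2| = 2))))

theorem chk_true : chk = true := by decide +kernel

theorem coords {a b c d : ℤ} (h1 : a ^ 2 + b ^ 2 + 11 * c ^ 2 + 11 * d ^ 2 = 64)
    (h3 : (a - b) % 2 = 0 ∧ (a - c) % 2 = 0 ∧ (a - d) % 2 = 0) :
    (c = 0 ∧ d = 0 ∧ ((a = 0 ∧ (b = 8 ∨ b = -8)) ∨ (b = 0 ∧ (a = 8 ∨ a = -8)))) ∨
    ((|a| = 4 ∧ |b| = 2 ∨ |a| = 2 ∧ |b| = 4) ∧ (|c| = 2 ∧ d = 0 ∨ c = 0 ∧ |d| = 2)) := by
  have ha : -8 ≤ a ∧ a ≤ 8 := by constructor <;> nlinarith [sq_nonneg b, sq_nonneg c, sq_nonneg d]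
  have hb : -8 ≤ b ∧ b ≤ 8 := by constructor <;> nlinarith [sq_nonneg a, sq_nonneg c, sq_nonneg d]
  have hc : -2 ≤ c ∧ c ≤ 2 := by
    have : c ^ 2 ≤ 5 := by nlinarith [sq_nonneg a, sq_nonneg b, sq_nonneg d]
    constructor <;> nlinarith
  have hd : -2 ≤ d ∧ d ≤ 2 := by
    have : d ^ 2 ≤ 5 := by nlinarith [sq_nonneg a, sq_nonneg b, sq_nonneg c]
    constructor <;> nlinarith
  obtain ⟨a', ha'⟩ := Int.eq_ofNat_of_zero_le (show 0 ≤ a + 8 by linarith [ha.1])
  obtain ⟨b', hb'⟩ := Int.eq_ofNat_of_zero_le (show 0 ≤ b + 8 by linarith [hb.1])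
  obtain ⟨c', hc'⟩ := Int.eq_ofNat_of_zero_le (show 0 ≤ c + 2 by linarith [hc.1])
  obtain ⟨d', hd'⟩ := Int.eq_ofNat_of_zero_le (show 0 ≤ d + 2 by linarith [hd.1])
  obtain rfl : a = a' - 8 := by linarith
  obtain rfl : b = b' - 8 := by linarith
  obtain rfl : c = c' - 2 := by linarith
  obtain rfl : d = d' - 2 := by linarith
  have h := chk_true
  unfold chk at h
  rw [List.all_eq_true] at h
  have h := h a' (List.mem_range.mpr (by omega))
  rw [List.all_eq_true] at h
  have h := h b' (List.mem_range.mpr (by omega))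
  rw [List.all_eq_true] at h
  have h := h c' (List.mem_range.mpr (by omega))
  rw [List.all_eq_true] at h
  have h := h d' (List.mem_range.mpr (by omega))
  exact (of_decide_eq_true h) ⟨h1, h3⟩

/-- the data of a vector of shape `(4, 2^12, 0^11)` fixed by `U0` -/
theorem shape_fixed {t : leechLattice} (ht : U0 • t = t) (hn : form t t = 8) (hs : (t : GolayPt → ℤ) ∉ stdCross) :
    ∃ p q r : GolayPt, p ≠ q ∧ p ≠ r ∧ |(t : GolayPt → ℤ) p| = 4 ∧ |(t : GolayPt → ℤ) q| = 2 ∧ (t : GolayPt → ℤ) r = 0 ∧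
      (∀ x, |(t : GolayPt → ℤ) x| = 4 → x = p) ∧
      ∃ m, (m = mQ ∨ m = mN) ∧ ∀ i < 24, (t : GolayPt → ℤ) (pt i) = 0 → m.testBit i = true := by
  have h3 := eight_form_self t
  rw [hn, sq_fixed ht] at h3
  have hQ := u_Q ht
  have hN := u_N ht
  have hpar : ((t : GolayPt → ℤ) (pt 23) - (t : GolayPt → ℤ) (pt 0)) % 2 = 0 ∧
      ((t : GolayPt → ℤ) (pt 23) - (t : GolayPt → ℤ) (pt 1)) % 2 = 0 ∧
      ((t : GolayPt → ℤ) (pt 23) - (t : GolayPt → ℤ) (pt 5)) % 2 = 0 := by
    rcases parity t.2 with h | h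
    · have h5 := h (pt 23)
      have h6 := h (pt 1)
      have h7 := h (pt 0)
      have h8 := h (pt 5)
      omega
    · have h5 := h (pt 23)
      have h6 := h (pt 1)
      have h7 := h (pt 0)
      have h8 := h (pt 5)
      omega
  have hc := coords (by linarith) hpar
  have h230 : pt 23 ≠ pt 0 := fun h => by have := pt_inj (by norm_num) (by norm_num) h; omega
  have h231 : pt 23 ≠ pt 1 := fun h => by have := pt_inj (by norm_num) (by norm_num) h; omega
  have h235 : pt 23 ≠ pt 5 := fun h => by have := pt_inj (by norm_num) (by norm_num) h; omega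
  have h01 : pt 0 ≠ pt 1 := fun h => by have := pt_inj (by norm_num) (by norm_num) h; omega
  have h05 : pt 0 ≠ pt 5 := fun h => by have := pt_inj (by norm_num) (by norm_num) h; omega
  rcases hc with ⟨h1, h5, h⟩ | ⟨hab, hcd⟩
  · exfalso
    apply hs
    have hz : ∀ i < 24, i ≠ 23 → i ≠ 0 → (t : GolayPt → ℤ) (pt i) = 0 := by
      apply u_cases (P := fun i => i ≠ 23 → i ≠ 0 → (t : GolayPt → ℤ) (pt i) = 0)
      · intro h; exact absurd rfl h
      · intro _ h; exact absurd rfl h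
      · intro _ _; exact h1
      · intro _ _; exact h5
      · intro i hi _ _; rw [hQ i hi]; exact h1
      · intro i hi _ _; rw [hN i hi]; exact h5
    rcases h with ⟨h0, h8⟩ | ⟨h0, h8⟩
    · refine ⟨pt 0, (t : GolayPt → ℤ) (pt 0), h8, ?_⟩
      apply ext_pt
      intro i hi
      by_cases hi0 : i = 0
      · subst hi0; rw [Pi.single_eq_same]
      · rw [Pi.single_eq_of_ne (fun h => hi0 (pt_inj hi (by norm_num) h))]
        by_cases hi23 : i = 23
        · subst hi23; exact h0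
        · exact hz i hi hi23 hi0
    · refine ⟨pt 23, (t : GolayPt → ℤ) (pt 23), h8, ?_⟩
      apply ext_pt
      intro i hi
      by_cases hi0 : i = 23
      · subst hi0; rw [Pi.single_eq_same]
      · rw [Pi.single_eq_of_ne (fun h => hi0 (pt_inj hi (by norm_num) h))]
        by_cases hi23 : i = 0
        · subst hi23; exact h0
        · exact hz i hi hi0 hi23
  · -- the uniqueness statement and the zero set
    have huniq : ∀ p q : ℕ, ((p = 23 ∧ q = 0) ∨ (p = 0 ∧ q = 23)) → |(t : GolayPt → ℤ) (pt q)| = 2 →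
        ∀ x, |(t : GolayPt → ℤ) x| = 4 → x = pt p := by
      intro p q hpq hq x hx
      rw [← pt_idx x] at hx ⊢
      have hi := idx_lt x
      generalize idx x = i at hx hi ⊢
      revert hx
      revert i
      have hc4 : |(t : GolayPt → ℤ) (pt 1)| ≠ 4 := by
        rcases hcd with ⟨h, _⟩ | ⟨h, _⟩
        · rw [h]; norm_num
        · rw [h]; norm_num
      have hd4 : |(t : GolayPt → ℤ) (pt 5)| ≠ 4 := by
        rcases hcd with ⟨_, h⟩ | ⟨_, h⟩
        · rw [h]; norm_num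
        · rw [h]; norm_num
      apply u_cases (P := fun i => |(t : GolayPt → ℤ) (pt i)| = 4 → pt i = pt p)
      · intro h
        rcases hpq with ⟨rfl, rfl⟩ | ⟨rfl, rfl⟩
        · rfl
        · rw [hq] at h; norm_num at h
      · intro h
        rcases hpq with ⟨rfl, rfl⟩ | ⟨rfl, rfl⟩
        · rw [hq] at h; norm_num at h
        · rfl
      · intro h; exact absurd h hc4
      · intro h; exact absurd h hd4
      · intro i hi h; rw [hQ i hi] at h; exact absurd h hc4
      · intro i hi h; rw [hN i hi] at h; exact absurd h hd4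
    have ha0 : (t : GolayPt → ℤ) (pt 23) ≠ 0 := by
      intro h0; rw [h0] at hab; norm_num at hab
    have hb0 : (t : GolayPt → ℤ) (pt 0) ≠ 0 := by
      intro h0; rw [h0] at hab; norm_num at hab
    have hzero : ∃ m, (m = mQ ∨ m = mN) ∧ ∀ i < 24, (t : GolayPt → ℤ) (pt i) = 0 → m.testBit i = true := by
      rcases hcd with ⟨h1, h2⟩ | ⟨h1, h2⟩
      · refine ⟨mN, Or.inr rfl, ?_⟩
        have hc0 : (t : GolayPt → ℤ) (pt 1) ≠ 0 := by intro h0; rw [h0] at h1; norm_num at h1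
        apply u_cases (P := fun i => (t : GolayPt → ℤ) (pt i) = 0 → mN.testBit i = true)
        · intro h; exact absurd h ha0
        · intro h; exact absurd h hb0
        · intro h; exact absurd h hc0
        · intro _; decide +kernel
        · intro i hi h; rw [hQ i hi] at h; exact absurd h hc0
        · intro i hi _
          have : ∀ i ∈ N11, mN.testBit i = true := by decide +kernel
          exact this i hi
      · refine ⟨mQ, Or.inl rfl, ?_⟩
        have hc0 : (t : GolayPt → ℤ) (pt 5) ≠ 0 := by intro h0; rw [h0] at h2; norm_num at h2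
        apply u_cases (P := fun i => (t : GolayPt → ℤ) (pt i) = 0 → mQ.testBit i = true)
        · intro h; exact absurd h ha0
        · intro h; exact absurd h hb0
        · intro _; decide +kernel
        · intro h; exact absurd h hc0
        · intro i hi _
          have : ∀ i ∈ Q11, mQ.testBit i = true := by decide +kernel
          exact this i hi
        · intro i hi h; rw [hN i hi] at h; exact absurd h hc0
    obtain ⟨r, hr23, hr0, hr⟩ : ∃ r, pt 23 ≠ r ∧ pt 0 ≠ r ∧ (t : GolayPt → ℤ) r = 0 := by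
      rcases hcd with ⟨_, h2⟩ | ⟨h1, _⟩
      · exact ⟨pt 5, h235, h05, h2⟩
      · exact ⟨pt 1, h231, h01, h1⟩
    rcases hab with ⟨h1, h2⟩ | ⟨h1, h2⟩
    · exact ⟨pt 23, pt 0, r, h230, hr23, h1, h2, hr, huniq 23 0 (Or.inl ⟨rfl, rfl⟩) h2, hzero⟩
    · exact ⟨pt 0, pt 23, r, h230.symm, hr0, h2, h1, hr, huniq 0 23 (Or.inr ⟨rfl, rfl⟩) h1, hzero⟩

end H2.CM
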