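import Cfsg.Agent.Lib.H2.CM.Eleven

set_option autoImplicit false

/-! The stabiliser of the standard cross is a maximal subgroup. -/

namespace H2.CM

open Cfsg Finset H9.Leech H9.ModTwo H9.LatticeIso H9.LeechGood H9.Trans H9.CoOrder H8.GolayCode H8.GolayBasic
open H8.GolayCount MulAction H33.Leech1 H33.Leech2 H33.Leech3 H33.Leech4 H33.Leech6 H33.Leech7 H9.CoStage H9.Co23

theorem isPGroup_zpowers {G : Type*} [Group G] {p : ℕ} {g : G} (h : g ^ p = 1) : IsPGroup p (Subgroup.zpowers g) := by
  rintro ⟨x, n, rfl⟩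
  refine ⟨1, Subtype.ext ?_⟩
  show (g ^ n) ^ p ^ 1 = 1
  rw [pow_one, ← zpow_natCast, ← zpow_mul, mul_comm, zpow_mul, zpow_natCast, h, one_zpow]

theorem fixvec {p : ℕ} [Fact p.Prime] (h48 : ¬ p ∣ 48) {g : Co0} (hg : g ∈ crossSub) (hgp : g ^ p = 1) :
    ∃ y : leechLattice, (y : GolayPt → ℤ) ∈ stdCross ∧ g • y = y := by
  have hG := isPGroup_zpowers (p := p) (g := (⟨g, hg⟩ : crossSub)) (Subtype.ext hgp)
  have hcard : Nat.card (orbit crossSub (e8 none)) = 48 := by
    rw [Nat.card_coe_set_eq]; exact orbit_cross_ncard none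
  obtain ⟨x, hx⟩ := hG.nonempty_fixed_point_of_prime_not_dvd_card (orbit crossSub (e8 none)) (by rwa [hcard])
  have hstd : ∀ w, w ∈ orbit crossSub (e8 none) → (w : GolayPt → ℤ) ∈ stdCross := fun w hw => by
    rw [orbit_cross] at hw; exact hw
  refine ⟨x.1, hstd _ x.2, ?_⟩
  · exact congrArg Subtype.val (hx ⟨_, Subgroup.mem_zpowers _⟩)

theorem mem_of_std {k : Co0} {y : leechLattice} (hy : (y : GolayPt → ℤ) ∈ stdCross)
    (hk : ((k • y : leechLattice) : GolayPt → ℤ) ∈ stdCross) : k ∈ crossSub := by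
  have hneg : ∀ z : leechLattice, (z : GolayPt → ℤ) ∈ stdCross → ((-z : leechLattice) : GolayPt → ℤ) ∈ stdCross := by
    intro z hz
    obtain ⟨q, rfl | rfl⟩ := H9.Cross.cross_cases hz
    · exact H9.Cross.neg_e8_mem_cross q
    · rw [neg_neg]; exact H9.Cross.e8_mem_cross q
  obtain ⟨q, rfl | rfl⟩ := H9.Cross.cross_cases hy
  · exact (H9.Cross.pres_iff q k).mpr hk
  · refine (H9.Cross.pres_iff q k).mpr ?_
    have h1 : k • (-e8 q) = -(k • e8 q) := co0_neg k (e8 q)
    rw [h1] at hk
    have := hneg _ hk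
    rwa [neg_neg] at this

theorem exists_moved {K : Subgroup Co0} (hK : crossSub ≤ K) {p : ℕ} [Fact p.Prime] (h48 : ¬ p ∣ 48) {x : Co0}
    (hx : x ∈ crossSub) (hxp : x ^ p = 1) (hd : ¬ crossSub.relIndex K ≡ 1 [MOD p]) :
    ∃ k ∈ K, k ∉ crossSub ∧ ∃ y : leechLattice, (y : GolayPt → ℤ) ∈ stdCross ∧ x • (k • y) = k • y := by
  by_contra hcon
  push Not at hcon
  apply hd
  set z : K := ⟨x, hK hx⟩ with hz
  have hG := isPGroup_zpowers (p := p) (g := z) (Subtype.ext hxp)
  have h1 := hG.card_modEq_card_fixedPoints (K ⧸ crossSub.subgroupOf K)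
  have h2 : Nat.card (K ⧸ crossSub.subgroupOf K) = crossSub.relIndex K := rfl
  rw [h2] at h1
  refine h1.trans ?_
  have h3 : fixedPoints (Subgroup.zpowers z) (K ⧸ crossSub.subgroupOf K) = {((1 : K) : K ⧸ crossSub.subgroupOf K)} := by
    ext q
    rw [Set.mem_singleton_iff]
    constructor
    · intro hq
      induction q using QuotientGroup.induction_on with
      | H k =>
        have h4 := hq ⟨z, Subgroup.mem_zpowers z⟩
        have h5 : ((z * k : K) : K ⧸ crossSub.subgroupOf K) = (k : K ⧸ crossSub.subgroupOf K) := h4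
        rw [QuotientGroup.eq, Subgroup.mem_subgroupOf] at h5
        have h6 : k.1⁻¹ * x * k.1 ∈ crossSub := by
          have h7 := crossSub.inv_mem h5
          have h8 : (((z * k)⁻¹ * k : K) : Co0)⁻¹ = k.1⁻¹ * x * k.1 := by
            show ((x * k.1)⁻¹ * k.1)⁻¹ = _
            group
          rwa [h8] at h7
        obtain ⟨y, hy, hy'⟩ := fixvec (p := p) h48 h6 (by
          rw [show k.1⁻¹ * x * k.1 = k.1⁻¹ * x * (k.1⁻¹)⁻¹ by group, conj_pow, hxp]; group)
        have h9 : x • (k.1 • y) = k.1 • y := by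
          rw [mul_smul, mul_smul, inv_smul_eq_iff] at hy'
          exact hy'
        by_cases hkN : k.1 ∈ crossSub
        · rw [QuotientGroup.eq, Subgroup.mem_subgroupOf]
          exact crossSub.mul_mem (crossSub.inv_mem hkN) crossSub.one_mem
        · exact absurd h9 (hcon k.1 k.2 hkN y hy)
    · rintro rfl ⟨_, n, rfl⟩
      show ((z ^ n * 1 : K) : K ⧸ crossSub.subgroupOf K) = _
      rw [QuotientGroup.eq, Subgroup.mem_subgroupOf, mul_one, mul_one]
      exact crossSub.inv_mem (crossSub.zpow_mem hx n)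
  have h4 : Nat.card (fixedPoints (Subgroup.zpowers z) (K ⧸ crossSub.subgroupOf K)) = 1 := by
    rw [h3]; simp
  rw [h4]

theorem mod23 {K : Subgroup Co0} (hK : crossSub ≤ K) : crossSub.relIndex K ≡ 1 [MOD 23] := by
  haveI : Fact (Nat.Prime 23) := ⟨by norm_num⟩
  by_contra hcon
  obtain ⟨k, _, hkN, y, hy, hfix⟩ := exists_moved hK (p := 23) (by norm_num) (x := x23)
    (H9.Cross.pres_mono H8.M24Mem.α_mem empty_mem) (by rw [← orderOf_x23]; exact pow_orderOf_eq_one _) hcon
  apply hkN
  apply mem_of_std hy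
  have hn : form (k • y) (k • y) = 8 := by
    rw [co0_form]
    exact ((H9.Cross.mem_cross_iff none y).mp hy).1
  rcases fixed64 hfix hn with h | h
  · rw [h]; exact H9.Cross.e8_mem_cross none
  · rw [h]; exact H9.Cross.neg_e8_mem_cross none

/-- permutations preserving the absolute values of the coordinates -/
def absStab (t : GolayPt → ℤ) : Subgroup M24 where
  carrier := {σ | ∀ i, |t (σ.1 i)| = |t i|}
  one_mem' := fun i => rfl
  mul_mem' := by
    intro σ τ hσ hτ i
    show |t (σ.1 (τ.1 i))| = |t i|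
    rw [hσ, hτ]
  inv_mem' := by
    intro σ hσ i
    have h := hσ ((σ⁻¹ : M24).1 i)
    have h2 : σ.1 ((σ⁻¹ : M24).1 i) = i := by
      show (σ.1 * (σ⁻¹).1) i = i
      rw [← Subgroup.coe_mul, mul_inv_cancel]; rfl
    rw [h2] at h
    exact h.symm

theorem absStab_index {t : GolayPt → ℤ} {p q r : GolayPt} (hpq : p ≠ q) (hpr : p ≠ r) (h4 : |t p| = 4) (h2 : |t q| = 2)
    (h0 : t r = 0) (hu : ∀ x, |t x| = 4 → x = p) : 48 ≤ (absStab t).index := by
  have hle : absStab t ≤ stabilizer M24 p := by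
    intro σ hσ
    rw [mem_stabilizer_iff]
    exact hu _ ((hσ p).trans h4)
  have h24 : (stabilizer M24 p).index = 24 := by
    haveI := H8.M24Trans.pretransitive
    rw [index_stabilizer_of_transitive, H9.M24Stab.card_pt]
  have h1 := Subgroup.relIndex_mul_index hle
  rw [h24] at h1
  have h2' : (absStab t).relIndex (stabilizer M24 p) ≠ 1 := by
    rw [Ne, Subgroup.relIndex_eq_one]
    intro hcon
    obtain ⟨σ, hσ, hl⟩ := trans_list [p, q] [p, r] (by simp [hpq]) (by simp [hpr]) rfl (by simp)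
    simp only [List.map_cons, List.map_nil, List.cons.injEq, and_true] at hl
    have h3 : (⟨σ, hσ⟩ : M24) ∈ absStab t := hcon (by rw [mem_stabilizer_iff]; exact hl.1)
    have h5 := h3 q
    rw [show ((⟨σ, hσ⟩ : M24) : Equiv.Perm GolayPt) q = r from hl.2, h2, h0] at h5
    norm_num at h5
  have h3 : (absStab t).relIndex (stabilizer M24 p) ≠ 0 := by
    have : Finite M24 := inferInstance
    exact Subgroup.index_ne_zero_of_finite
  have : 2 ≤ (absStab t).relIndex (stabilizer M24 p) := by omega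
  omega

theorem orbit_large {t : leechLattice} (ht : U0 • t = t) (hn : form t t = 8) (hs : (t : GolayPt → ℤ) ∉ stdCross) :
    4096 * 48 ≤ (orbit crossSub t).ncard := by
  obtain ⟨p, q, r, hpq, hpr, h4, h2, h0, hu, m, hm, hz⟩ := shape_fixed ht hn hs
  have hidx := absStab_index hpq hpr h4 h2 h0 hu
  -- the stabiliser maps injectively to permutations
  have hmap : ∀ g : stabilizer crossSub t, ∃ (σ : Equiv.Perm GolayPt) (hσ : σ ∈ M24) (c : Finset GolayPt) (hc : c ∈ GS),
      g.1.1 = mono σ hσ c hc := fun g => H9.Cross.mono_of_pres g.1.2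
  choose σ hσ c hc hg using hmap
  have hval : ∀ (g : stabilizer crossSub t) (i : GolayPt),
      (if σ g i ∈ c g then -(t : GolayPt → ℤ) i else (t : GolayPt → ℤ) i) = (t : GolayPt → ℤ) (σ g i) := by
    intro g i
    have h1 : g.1.1 • t = t := g.2
    have h3 := congrFun (congrArg Subtype.val h1) (σ g i)
    rw [hg g] at h3
    have h5 : ((mono (σ g) (hσ g) (c g) (hc g) • t : leechLattice) : GolayPt → ℤ) (σ g i) =
        (if σ g i ∈ c g then -(t : GolayPt → ℤ) i else (t : GolayPt → ℤ) i) := by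
      rw [coe_mono]
      show (if σ g i ∈ c g then -(t : GolayPt → ℤ) ((σ g).symm (σ g i)) else (t : GolayPt → ℤ) ((σ g).symm (σ g i))) = _
      rw [Equiv.symm_apply_apply]
    rw [← h5]; exact h3
  have habs : ∀ g : stabilizer crossSub t, (⟨σ g, hσ g⟩ : M24) ∈ absStab (t : GolayPt → ℤ) := by
    intro g i
    show |(t : GolayPt → ℤ) (σ g i)| = |(t : GolayPt → ℤ) i|
    rw [← hval g i]
    split_ifs
    · exact abs_neg _
    · rfl
  let F : stabilizer crossSub t → absStab (t : GolayPt → ℤ) := fun g => ⟨⟨σ g, hσ g⟩, habs g⟩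
  have hF : Function.Injective F := by
    intro g g' h
    have hσσ : σ g = σ g' := congrArg (fun z => z.1.1) h
    have hcc : symmDiff (c g) (c g') = ∅ := by
      apply word_empty hm (symmDiff_mem (hc g) (hc g'))
      intro i hi hmem
      apply hz i hi
      by_contra hne
      obtain ⟨j, hj⟩ := (σ g).surjective (pt i)
      have e1 := hval g j
      have e2 := hval g' j
      rw [← hσσ] at e2
      rw [hj] at e1 e2
      have hj0 : (t : GolayPt → ℤ) j ≠ 0 := by
        intro h0
        rw [h0] at e1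
        apply hne
        rw [← e1]
        split_ifs <;> simp
      rw [mem_symmDiff] at hmem
      rcases hmem with ⟨h1, h3⟩ | ⟨h1, h3⟩
      · rw [if_pos h1] at e1
        rw [if_neg h3] at e2
        omega
      · rw [if_neg h3] at e1
        rw [if_pos h1] at e2
        omega
    have hcc' : c g = c g' := symmDiff_eq_bot.mp hcc
    apply Subtype.ext
    apply Subtype.ext
    rw [hg g, hg g']
    congr 1
  have hfin : Finite M24 := inferInstance
  have h5 : Nat.card (stabilizer crossSub t) ≤ Nat.card (absStab (t : GolayPt → ℤ)) := Nat.card_le_card_of_injective F hF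
  have h6 := Subgroup.card_mul_index (stabilizer crossSub t)
  have h7 := Subgroup.card_mul_index (absStab (t : GolayPt → ℤ))
  rw [index_stabilizer, card_crossSub] at h6
  rw [H8.M24Chain.card_M24] at h7
  have hpos : 0 < Nat.card (stabilizer crossSub t) := Nat.card_pos
  by_contra hlt
  push Not at hlt
  have h8 : Nat.card (stabilizer crossSub t) * 48 ≤ 244823040 := by
    rw [← h7]; exact Nat.mul_le_mul h5 hidx
  have h9 : Nat.card (stabilizer crossSub t) * (orbit crossSub t).ncard <
      Nat.card (stabilizer crossSub t) * (4096 * 48) := Nat.mul_lt_mul_of_pos_left hlt hpos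
  rw [h6] at h9
  omega

theorem not4095 {K : Subgroup Co0} (hK : crossSub ≤ K) : crossSub.relIndex K ≠ 4095 := by
  intro hd
  haveI : Fact (Nat.Prime 11) := ⟨by norm_num⟩
  obtain ⟨k, hk, hkN, y, hy, hfix⟩ := exists_moved hK (p := 11) (by norm_num) (x := U0) U0_mem U0_pow (by
    rw [hd]; decide)
  have hn : form (k • y) (k • y) = 8 := by
    rw [co0_form]
    exact ((H9.Cross.mem_cross_iff none y).mp hy).1
  have hs : ((k • y : leechLattice) : GolayPt → ℤ) ∉ stdCross := fun h => hkN (mem_of_std hy h)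
  have h1 := orbit_large hfix hn hs
  have h2 : (orbit K (e8 none)).ncard = 48 * 4095 := by
    rw [← stab_relIndex, ← Subgroup.relIndex_mul_relIndex _ crossSub K (stab_le none) hK, relIndex_cross, hd]
  have hfin : (orbit K (e8 none)).Finite := Set.finite_of_ncard_pos (by rw [h2]; norm_num)
  have hN : ∀ x ∈ orbit K (e8 none), ∀ n ∈ crossSub, n • x ∈ orbit K (e8 none) := by
    rintro _ ⟨k, rfl⟩ n hn
    exact ⟨⟨n, hK hn⟩ * k, mul_smul _ _ _⟩
  have hy' : y ∈ orbit crossSub (e8 none) := by rw [orbit_cross]; exact hy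
  have hky : k • y ∈ orbit K (e8 none) := by
    obtain ⟨n, rfl⟩ := hy'
    exact ⟨⟨k, hk⟩ * ⟨n.1, hK n.2⟩, mul_smul _ _ _⟩
  have hsub : orbit crossSub (k • y) ∪ orbit crossSub (e8 none) ⊆ orbit K (e8 none) := by
    rintro x (⟨n, rfl⟩ | ⟨n, rfl⟩)
    · exact hN _ hky n.1 n.2
    · exact ⟨⟨n.1, hK n.2⟩, rfl⟩
  have hdisj : Disjoint (orbit crossSub (k • y)) (orbit crossSub (e8 none)) := by
    rw [Set.disjoint_left]
    intro x hx1 hx2
    apply hs
    have h3 : k • y ∈ orbit crossSub (e8 none) := by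
      rw [← orbit_eq_iff.mpr hx2, orbit_eq_iff.mpr hx1]
      exact mem_orbit_self _
    rw [orbit_cross] at h3
    exact h3
  have h3 := Set.ncard_le_ncard hsub hfin
  rw [Set.ncard_union_eq hdisj (hfin.subset (Set.subset_union_left.trans hsub))
    (hfin.subset (Set.subset_union_right.trans hsub)), orbit_cross_ncard, h2] at h3
  omega

theorem main {K : Subgroup Co0} (hK : crossSub < K) : K = ⊤ := by
  have hle := hK.le
  rcases orbit_A hle with h | h
  · exact absurd (eq_of_orbit hle h) hK.not_ge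
  · have h1 := dvd_of_orbit hle h
    have h2 := mod23 hle
    have h3 := not4095 hle
    have h4 := Subgroup.relIndex_mul_index hle
    rw [index_crossSub] at h4
    obtain ⟨m, hm⟩ := h1
    rw [hm] at h2 h3 h4
    have h5 : m * K.index = 2025 := by
      have : 4095 * (m * K.index) = 4095 * 2025 := by rw [← mul_assoc, h4]
      exact Nat.eq_of_mul_eq_mul_left (by norm_num) this
    have h6 : m ∈ Nat.divisors 2025 := by
      rw [Nat.mem_divisors]; exact ⟨⟨_, h5.symm⟩, by norm_num⟩
    have h7 : ∀ m ∈ Nat.divisors 2025, 4095 * m ≡ 1 [MOD 23] → 4095 * m ≠ 4095 → m = 2025 := by decide +kernel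
    have h8 := h7 m h6 h2 h3
    rw [h8] at h5
    rw [← Subgroup.index_eq_one]
    omega

theorem isCoatom : IsCoatom crossSub := by
  refine ⟨?_, fun K hK => main hK⟩
  intro h
  have := index_crossSub
  rw [h, Subgroup.index_top] at this
  norm_num at this

end H2.CM
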