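import Cfsg.Agent.Lib.H33.Leech14
import Cfsg.Agent.Lib.H33.Leech7
import Cfsg.Agent.Lib.H9.CoOrder
import Cfsg.Agent.Lib.H9.FrameCount

set_option autoImplicit false

/-! Orbits of the cross stabiliser on the minimal vectors. -/

namespace H2.CM

open Cfsg Finset H9.Leech H9.ModTwo H9.LatticeIso H9.LeechGood H9.Trans H9.CoOrder H8.GolayCode H8.GolayBasic
open H8.GolayCount MulAction H33.Leech1 H33.Leech2 H33.Leech3 H33.Leech4 H33.Leech6 H33.Leech7

/-- vectors of shape `(±4, ±4, 0, ..., 0)` -/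
def IsA (x : leechLattice) : Prop :=
  ∃ i j, i ≠ j ∧ ((x : GolayPt → ℤ) i = 4 ∨ (x : GolayPt → ℤ) i = -4) ∧
    ((x : GolayPt → ℤ) j = 4 ∨ (x : GolayPt → ℤ) j = -4) ∧ ∀ k, k ≠ i → k ≠ j → (x : GolayPt → ℤ) k = 0

def IsB (x : leechLattice) : Prop :=
  ∃ O ∈ octads, (∀ i ∈ O, (x : GolayPt → ℤ) i = 2 ∨ (x : GolayPt → ℤ) i = -2) ∧ ∀ i ∉ O, (x : GolayPt → ℤ) i = 0

def IsC (x : leechLattice) : Prop :=
  ∃ c ∈ GS, ∃ j, ∀ i, (x : GolayPt → ℤ) i = eps c i * (if i = j then -3 else 1)

theorem cases32 {x : leechLattice} (hx : sqNorm (x : GolayPt → ℤ) = 32) : IsA x ∨ IsB x ∨ IsC x :=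
  classify32 x.2 hx

/-- monomial elements as elements of the cross stabiliser -/
theorem mono_mem {σ : Equiv.Perm GolayPt} (hσ : σ ∈ M24) {c : Finset GolayPt} (hc : c ∈ GS) :
    mono σ hσ c hc ∈ crossSub := H9.Cross.pres_mono hσ hc

theorem exists_A {x : leechLattice} (hx : IsA x) : ∃ n ∈ crossSub, n • x = A := by
  obtain ⟨i, j, hij, hi, hj, h0⟩ := hx
  obtain ⟨σ, hσ, hl⟩ := trans_list [i, j] [P, Q] (by simp [hij]) (by simp [PQ]) rfl (by simp)
  simp only [List.map_cons, List.map_nil, List.cons.injEq, and_true] at hl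
  -- first permute
  have h1 : ∃ a b : ℤ, (a = 4 ∨ a = -4) ∧ (b = 4 ∨ b = -4) ∧
      ((mono σ hσ ∅ empty_mem • x : leechLattice) : GolayPt → ℤ) = Pi.single P a + Pi.single Q b := by
    refine ⟨(x : GolayPt → ℤ) i, (x : GolayPt → ℤ) j, hi, hj, ?_⟩
    rw [coe_mono, signed_empty]
    funext k
    obtain ⟨l, rfl⟩ := σ.surjective k
    rw [Function.comp_apply, Equiv.symm_apply_apply, ← hl.1, ← hl.2, Pi.add_apply]
    by_cases hli : l = i
    · subst hli
      rw [Pi.single_eq_same, Pi.single_eq_of_ne (by simpa using hij), add_zero]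
    · by_cases hlj : l = j
      · subst hlj
        rw [Pi.single_eq_same, Pi.single_eq_of_ne (by simpa using hij.symm), zero_add]
      · rw [Pi.single_eq_of_ne (by simpa using hli), Pi.single_eq_of_ne (by simpa using hlj), h0 l hli hlj]; rfl
  obtain ⟨a, b, ha, hb, hx1⟩ := h1
  -- fix the sign at P
  have h2 : ∃ n ∈ crossSub, ∃ b : ℤ, (b = 4 ∨ b = -4) ∧
      ((n • x : leechLattice) : GolayPt → ℤ) = Pi.single P 4 + Pi.single Q b := by
    rcases ha with rfl | rfl
    · exact ⟨_, mono_mem hσ empty_mem, b, hb, hx1⟩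
    · refine ⟨negOne * mono σ hσ ∅ empty_mem, crossSub.mul_mem negOne_pres (mono_mem hσ empty_mem), -b,
        by omega, ?_⟩
      rw [mul_smul, negOne_smul]
      show -((mono σ hσ ∅ empty_mem • x : leechLattice) : GolayPt → ℤ) = _
      rw [hx1, neg_add, ← Pi.single_neg, ← Pi.single_neg, neg_neg]
  obtain ⟨n, hn, b, hb, hx2⟩ := h2
  rcases hb with rfl | rfl
  · exact ⟨n, hn, Subtype.ext (by rw [hx2]; rfl)⟩
  · obtain ⟨c, hc, hP, hQ⟩ := exists_code_Q
    refine ⟨mono 1 one_mem c hc * n, crossSub.mul_mem (mono_mem _ hc) hn, ?_⟩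
    apply Subtype.ext
    rw [mul_smul, coe_mono, hx2, signed_add, signed_single, signed_single, coe_A]
    show Pi.single P (if P ∈ c then -4 else 4) + Pi.single Q (if Q ∈ c then - -4 else -4) = _
    rw [if_neg hP, if_pos hQ, neg_neg]

theorem exists_C {x : leechLattice} (hx : IsC x) : ∃ n ∈ crossSub, n • x = W0 := by
  obtain ⟨c, hc, j, h⟩ := hx
  obtain ⟨σ, hσ, hl⟩ := trans_list [j] [P] (by simp) (by simp) rfl (by simp)
  simp only [List.map_cons, List.map_nil, List.cons.injEq, and_true] at hl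
  refine ⟨mono σ hσ ∅ empty_mem * mono 1 one_mem c hc, crossSub.mul_mem (mono_mem _ _) (mono_mem _ _), ?_⟩
  apply Subtype.ext
  rw [mul_smul, coe_mono, signed_empty, coe_sign]
  funext k
  obtain ⟨l, rfl⟩ := σ.surjective k
  rw [Function.comp_apply, Equiv.symm_apply_apply, h, ← mul_assoc, eps_sq, one_mul, coe_W0, ← hl]
  simp only [EmbeddingLike.apply_eq_iff_eq]

/-- code words with prescribed even intersection with an octad: pairs -/
theorem exists_pair {O : Finset GolayPt} (hO : O ∈ octads) {p q : GolayPt} (hp : p ∈ O) (hq : q ∈ O) (hpq : p ≠ q) :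
    ∃ e ∈ GS, e ∩ O = {p, q} := by
  obtain ⟨w, hw⟩ : ∃ w, w ∉ O := by
    by_contra hc
    push Not at hc
    have h1 : O = univ := by ext x; simp [hc x]
    have h2 := hO.2
    rw [h1, card_univ, card_pt] at h2
    omega
  obtain ⟨σ, hσ, h1, -, h2⟩ := H33.M24Move.move O1_mem hO [P, Q] [p, q] (by simp [PQ]) (by simp [hpq]) rfl (by simp)
    (by intro a ha; simp only [List.mem_cons, List.not_mem_nil, or_false] at ha
        rcases ha with rfl | rfl
        · exact P_O1
        · exact Q_O1)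
    (by intro a ha; simp only [List.mem_cons, List.not_mem_nil, or_false] at ha
        rcases ha with rfl | rfl <;> assumption) R w R_O1 hw
  simp only [List.map_cons, List.map_nil, List.cons.injEq, and_true] at h1
  have hE : support₂ (wd 0x149f) ∈ GS := mask_mem (by decide) (by decide +kernel)
  have hEO : support₂ (wd 0x149f) ∩ O1 = {P, Q} := by
    ext x
    rw [← pt_idx x]
    have hi := idx_lt x
    generalize idx x = i at hi
    rw [mem_inter, mem_insert, mem_singleton, O1, pt_mem hi, pt_mem hi, P, Q]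
    have h3 : (pt i = pt 0 ↔ i = 0) := ⟨fun h => pt_inj hi (by norm_num) h, fun h => by rw [h]⟩
    have h4 : (pt i = pt 1 ↔ i = 1) := ⟨fun h => pt_inj hi (by norm_num) h, fun h => by rw [h]⟩
    rw [h3, h4]
    revert i
    decide +kernel
  refine ⟨(support₂ (wd 0x149f)).image σ, (H8.M24Mem.mem_M24_iff σ).mp hσ _ hE, ?_⟩
  rw [← h2, ← image_inter _ _ σ.injective, hEO, image_insert, image_singleton, h1.1, h1.2]

theorem exists_even {O : Finset GolayPt} (hO : O ∈ octads) : ∀ (n : ℕ) (T : Finset GolayPt), T.card = 2 * n → T ⊆ O →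
    ∃ e ∈ GS, e ∩ O = T := by
  intro n
  induction n with
  | zero =>
    intro T hT _
    rw [mul_zero, card_eq_zero] at hT
    exact ⟨∅, empty_mem, by rw [hT]; simp⟩
  | succ n ih =>
    intro T hT hTO
    obtain ⟨p, q, hpq, hsub⟩ : ∃ p q, p ≠ q ∧ ({p, q} : Finset GolayPt) ⊆ T := by
      obtain ⟨S, hS, hSc⟩ := exists_subset_card_eq (show 2 ≤ T.card by omega)
      obtain ⟨p, q, hpq, rfl⟩ := card_eq_two.mp hSc
      exact ⟨p, q, hpq, hS⟩
    have hp : p ∈ T := hsub (by simp)
    have hq : q ∈ T := hsub (by simp)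
    obtain ⟨e, he, he'⟩ := ih (T \ {p, q}) (by rw [card_sdiff_of_subset hsub, card_pair hpq, hT]; omega)
      (sdiff_subset.trans hTO)
    obtain ⟨f, hf, hf'⟩ := exists_pair hO (hTO hp) (hTO hq) hpq
    refine ⟨symmDiff e f, symmDiff_mem he hf, ?_⟩
    have h1 : symmDiff e f ∩ O = symmDiff (e ∩ O) (f ∩ O) := by
      ext x; simp only [mem_inter, mem_symmDiff]; tauto
    rw [h1, he', hf']
    ext x
    simp only [mem_symmDiff, mem_sdiff, mem_insert, mem_singleton]
    constructor
    · rintro (⟨⟨h, _⟩, _⟩ | ⟨rfl | rfl, _⟩) <;> assumption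
    · intro h
      by_cases hx : x = p ∨ x = q
      · right; exact ⟨hx, fun h2 => h2.2 hx⟩
      · left; exact ⟨⟨h, hx⟩, hx⟩

theorem frame : H9.FrameLat.IsFrameLattice (leechLattice) where
  h16 := fun x hx => sixteen_dvd hx
  h8 := fun x hx y hy => eight_dvd hx hy
  hmin := fun x hx h0 => min_norm hx h0
  h4e := fun i j hij => by
    have := four_mem hij (a := 1) (b := 1) (by norm_num)
    simpa using this
  h8e := fun i => (e8 i).2
  hcount := H9.LeechCount.count32

theorem exists_B {x : leechLattice} (hx : IsB x) : ∃ n ∈ crossSub, n • x = twoInd O1 O1_mem := by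
  obtain ⟨O, hO, h1, h2⟩ := hx
  set T := O.filter fun i => (x : GolayPt → ℤ) i = -2 with hT
  have heven : (2 : ℤ) ∣ (T.card : ℤ) := by
    have h3 : (fun i => 4 * (-(ind T i))) ∈ leechLattice := by
      have h4 := leechLattice.sub_mem x.2 (twoInd O hO).2
      have h5 : (x : GolayPt → ℤ) - (twoInd O hO : GolayPt → ℤ) = fun i => 4 * (-(ind T i)) := by
        funext i
        rw [Pi.sub_apply, coe_twoInd]
        by_cases hi : i ∈ O
        · rcases h1 i hi with h | h
          · have : i ∉ T := by rw [hT, mem_filter]; rintro ⟨_, h'⟩; omega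
            rw [ind_in hi, ind_out this, h]; norm_num
          · have : i ∈ T := by rw [hT, mem_filter]; exact ⟨hi, h⟩
            rw [ind_in hi, ind_in this, h]; norm_num
        · have : i ∉ T := by rw [hT, mem_filter]; rintro ⟨h', _⟩; exact hi h'
          rw [ind_out hi, ind_out this, h2 i hi]; norm_num
      rwa [h5] at h4
    have h6 := (frame.four_mem_iff).mp h3
    rw [sum_neg_distrib, sum_ind, dvd_neg] at h6
    exact h6
  obtain ⟨n, hn⟩ : ∃ n, T.card = 2 * n := by
    have : 2 ∣ T.card := by exact_mod_cast heven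
    exact this
  obtain ⟨e, he, he'⟩ := exists_even hO n T hn (filter_subset _ _)
  obtain ⟨w, hw⟩ : ∃ w, w ∉ O := by
    by_contra hc
    push Not at hc
    have h1 : O = univ := by ext x; simp [hc x]
    have h2 := hO.2
    rw [h1, card_univ, card_pt] at h2
    omega
  obtain ⟨σ, hσ, -, -, h3⟩ := H33.M24Move.move hO O1_mem [] [] (by simp) (by simp) rfl (by simp) (by simp) (by simp) w R hw R_O1
  refine ⟨mono σ hσ ∅ empty_mem * mono 1 one_mem e he, crossSub.mul_mem (mono_mem _ _) (mono_mem _ _), ?_⟩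
  apply Subtype.ext
  rw [mul_smul, coe_mono, signed_empty, coe_sign]
  funext k
  obtain ⟨l, rfl⟩ := σ.surjective k
  rw [Function.comp_apply, Equiv.symm_apply_apply, coe_twoInd]
  have h4 : σ l ∈ O1 ↔ l ∈ O := by
    rw [← h3, mem_image]
    constructor
    · rintro ⟨a, ha, hal⟩; rwa [σ.injective hal] at ha
    · intro h; exact ⟨l, h, rfl⟩
  by_cases hl : l ∈ O
  · rw [ind_in (h4.mpr hl)]
    have h5 : l ∈ e ↔ l ∈ T := by rw [← he', mem_inter]; tauto
    rcases h1 l hl with h | h
    · have h6 : l ∉ e := by rw [h5, hT, mem_filter]; rintro ⟨_, h'⟩; omega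
      rw [eps_out h6, h]; norm_num
    · have h6 : l ∈ e := by rw [h5, hT, mem_filter]; exact ⟨hl, h⟩
      rw [eps_in h6, h]; norm_num
  · rw [ind_out (fun h => hl (h4.mp h)), h2 l hl]; ring

end H2.CM
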